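import Cfsg.Agent.H116.RatB0.TabF4

/-!
# Parabolic subgroups of `F₄(q)` and the prime 7, `q` of order 3 or 6 modulo 7 (helper25; piece F4b of S4879)

* `card_PJ` : `|P_J| = q ^ 24 ∏ (q ^ d - 1)`;
* `not_dvd_card` : `7 ∤ |P_J|` for `J = ∅, {1}, {2}, {3}, {1, 2}, {1, 3}` (and `J = {0}, {0, 2}`, `not_dvd_card'`);
  `dvd_card_123`, `dvd_card_012`;
* `long_rep` : the roots with even coefficients at the nodes 0, 1 (the long roots; the nodes 2, 3 are long) are permuted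
  by `W`;
* `shape` : `w` maps the simple roots of `J ⊆ {1, 2, 3}` onto the simple roots of `J' ⊆ {0, 1, 2}` : `J` is one of the six
  sets `∅, {1}, {2}, {3}, {1, 2}, {1, 3}`; `shape'` : `J'` is one of `∅, {0}, {1}, {2}, {0, 2}, {1, 2}`.
-/

set_option autoImplicit false
set_option linter.unusedSectionVars false
set_option maxRecDepth 100000

namespace Cfsg.Agent.H25.LB

open CoxeterSystem Cfsg.Agent.ChevalleyStructure.CoxeterGeom Cfsg.Agent.Tits.Roots Cfsg.Agent.Tits.Core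
  Cfsg.Agent.Tits.RootComb Cfsg.Agent.Nodes.Reps Cfsg.Agent.Nodes.BNOf
  Cfsg.Agent.Nodes.StabComb Cfsg.Agent.Nodes.Bruhat Cfsg.Agent.Nodes.LeviDec Cfsg.Agent.H35.Poin
  Cfsg.Agent.H35.PoinNum Cfsg.Agent.H35.ExcIdx Cfsg.Agent.H134.StrP
  Cfsg.Agent.ChevalleyStructure.CoxeterGeomTypes Cfsg.Lie Cfsg.Agent.H116.RatB0
open Cfsg.Agent.Nodes.RGDChev Cfsg.Agent.ChevalleyStructure.NPerm

/-! ### the Weyl group -/

section Weyl

variable {W : Type*} [Group W] {cs : CoxeterSystem CoxeterMatrix.F₄ W}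

/-- the vectors with even coefficients at the short nodes -/
def EvS (v : Fin 4 → ℤ) : Prop := Even (v 0) ∧ Even (v 1)

theorem cartan_even : Even (cartanOf chevF4 4 0 2) ∧ Even (cartanOf chevF4 4 0 3) ∧ Even (cartanOf chevF4 4 1 2) ∧
    Even (cartanOf chevF4 4 1 3) := by
  decide +kernel

theorem EvS.simple {v : Fin 4 → ℤ} (hv : EvS v) (i : Fin 4) :
    EvS (rep cs hpF4.isCartan (cs.simple i) v) := by
  obtain ⟨e1, e2, e3, e4⟩ := cartan_even
  have hp : ∀ j : Fin 4, (j = 0 ∨ j = 1) → Even (pairing (cartanOf chevF4 4) j v) := by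
    intro j hj
    unfold pairing
    rw [Fin.sum_univ_four]
    rcases hj with rfl | rfl
    · exact (((hv.1.mul_left _).add (hv.2.mul_left _)).add (e1.mul_right _)).add (e2.mul_right _)
    · exact (((hv.1.mul_left _).add (hv.2.mul_left _)).add (e3.mul_right _)).add (e4.mul_right _)
  constructor
  · by_cases hi : (0 : Fin 4) = i
    · subst hi
      rw [rep_simple_apply_self]
      exact hv.1.sub (hp 0 (Or.inl rfl))
    · rw [rep_simple_apply cs _ i v 0 hi]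
      exact hv.1
  · by_cases hi : (1 : Fin 4) = i
    · subst hi
      rw [rep_simple_apply_self]
      exact hv.2.sub (hp 1 (Or.inr rfl))
    · rw [rep_simple_apply cs _ i v 1 hi]
      exact hv.2

theorem EvS.act {v : Fin 4 → ℤ} (hv : EvS v) (w : W) : EvS (rep cs hpF4.isCartan w v) := by
  induction w using cs.simple_induction_left generalizing v with
  | one => rwa [map_one, Module.End.one_apply]
  | mul_simple_left w i ih =>
    rw [rep_mul_apply]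
    exact (ih hv).simple i

/-- the long roots are permuted -/
theorem long_rep (w : W) (v : Fin 4 → ℤ) : EvS (rep cs hpF4.isCartan w v) ↔ EvS v := by
  refine ⟨fun h => ?_, fun h => h.act w⟩
  have := EvS.act (cs := cs) h w⁻¹
  rwa [rep_inv_apply] at this

theorem evS_sr (i : Fin 4) : EvS (sr i) ↔ i = 2 ∨ i = 3 := by
  unfold EvS sr
  fin_cases i <;> simp

theorem ev_iff {w : W} {i j : Fin 4} (e : rep cs hpF4.isCartan w (sr i) = sr j) :
    (i = 2 ∨ i = 3) ↔ (j = 2 ∨ j = 3) := by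
  rw [← evS_sr, ← evS_sr, ← e, long_rep]

theorem sr_inj {i j : Fin 4} (e : (sr i : Fin 4 → ℤ) = sr j) : i = j := by
  by_contra hne
  have := congrFun e i
  rw [sr_self, sr_ne hne] at this
  exact one_ne_zero this

/-- `J ⊆ {1, 2, 3}` mapped into `{0, 1, 2}` -/
theorem shape {J J' : Set (Fin 4)} (hJ : J ⊆ {1, 2, 3}) (hJ' : J' ⊆ {0, 1, 2}) {w : W}
    (h : ∀ k ∈ J, ∃ j ∈ J', rep cs hpF4.isCartan w (sr k) = sr j) :
    J = ∅ ∨ J = {1} ∨ J = {2} ∨ J = {3} ∨ J = {1, 2} ∨ J = {1, 3} := by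
  classical
  have h23 : ¬ (2 ∈ J ∧ 3 ∈ J) := by
    rintro ⟨h2, h3⟩
    have key : ∀ k ∈ J, (k = 2 ∨ k = 3) → rep cs hpF4.isCartan w (sr k) = sr 2 := by
      intro k hk h23
      obtain ⟨j, hj, e⟩ := h k hk
      have h4 := (ev_iff e).1 h23
      have h5 := hJ' hj
      rcases h4 with rfl | rfl
      · exact e
      · simp at h5
    have e1 := (key 2 h2 (Or.inl rfl)).trans (key 3 h3 (Or.inr rfl)).symm
    have e2 := congrArg (rep cs hpF4.isCartan w⁻¹) e1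
    rw [rep_inv_apply, rep_inv_apply] at e2
    exact absurd (sr_inj e2) (by decide)
  have h0 : (0 : Fin 4) ∉ J := fun h0 => by
    have := hJ h0
    simp at this
  have hs : ∀ S : Set (Fin 4), (0 ∉ S) → (1 ∈ J ↔ 1 ∈ S) → (2 ∈ J ↔ 2 ∈ S) → (3 ∈ J ↔ 3 ∈ S) → J = S := by
    intro S a b c d
    ext i
    fin_cases i
    · exact iff_of_false h0 a
    · exact b
    · exact c
    · exact d
  by_cases h1 : 1 ∈ J <;> by_cases h2 : 2 ∈ J <;> by_cases h3 : 3 ∈ J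
  · exact absurd ⟨h2, h3⟩ h23
  · exact Or.inr (Or.inr (Or.inr (Or.inr (Or.inl (hs _ (by simp) (by simp [h1]) (by simp [h2]) (by simp [h3]))))))
  · exact Or.inr (Or.inr (Or.inr (Or.inr (Or.inr (hs _ (by simp) (by simp [h1]) (by simp [h2]) (by simp [h3]))))))
  · exact Or.inr (Or.inl (hs _ (by simp) (by simp [h1]) (by simp [h2]) (by simp [h3])))
  · exact absurd ⟨h2, h3⟩ h23
  · exact Or.inr (Or.inr (Or.inl (hs _ (by simp) (by simp [h1]) (by simp [h2]) (by simp [h3]))))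
  · exact Or.inr (Or.inr (Or.inr (Or.inl (hs _ (by simp) (by simp [h1]) (by simp [h2]) (by simp [h3])))))
  · exact Or.inl (hs _ (by simp) (by simp [h1]) (by simp [h2]) (by simp [h3]))

/-- `J' ⊆ {0, 1, 2}` in the image of `{1, 2, 3}` -/
theorem shape' {J J' : Set (Fin 4)} (hJ : J ⊆ {1, 2, 3}) (hJ' : J' ⊆ {0, 1, 2}) {w : W}
    (h : ∀ j ∈ J', ∃ k ∈ J, rep cs hpF4.isCartan w (sr k) = sr j) :
    J' = ∅ ∨ J' = {0} ∨ J' = {1} ∨ J' = {2} ∨ J' = {0, 2} ∨ J' = {1, 2} := by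
  classical
  have h01 : ¬ (0 ∈ J' ∧ 1 ∈ J') := by
    rintro ⟨h0, h1⟩
    have key : ∀ j ∈ J', (j = 0 ∨ j = 1) → rep cs hpF4.isCartan w (sr 1) = sr j := by
      intro j hj h01
      obtain ⟨k, hk, e⟩ := h j hj
      have h4 : ¬ (k = 2 ∨ k = 3) := fun h4 => by
        have := (ev_iff e).1 h4
        rcases h01 with rfl | rfl <;> simp at this
      have h5 := hJ hk
      simp only [Set.mem_insert_iff, Set.mem_singleton_iff] at h5
      rcases h5 with rfl | h5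
      · exact e
      · exact absurd h5 h4
    exact absurd (sr_inj ((key 0 h0 (Or.inl rfl)).symm.trans (key 1 h1 (Or.inr rfl)))) (by decide)
  have h3 : (3 : Fin 4) ∉ J' := fun h0 => by
    have := hJ' h0
    simp at this
  have hs : ∀ S : Set (Fin 4), (3 ∉ S) → (0 ∈ J' ↔ 0 ∈ S) → (1 ∈ J' ↔ 1 ∈ S) → (2 ∈ J' ↔ 2 ∈ S) → J' = S := by
    intro S a b c d
    ext i
    fin_cases i
    · exact b
    · exact c
    · exact d
    · exact iff_of_false h3 a
  by_cases h0 : 0 ∈ J' <;> by_cases h1 : 1 ∈ J' <;> by_cases h2 : 2 ∈ J'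
  · exact absurd ⟨h0, h1⟩ h01
  · exact absurd ⟨h0, h1⟩ h01
  · exact Or.inr (Or.inr (Or.inr (Or.inr (Or.inl (hs _ (by simp) (by simp [h0]) (by simp [h1]) (by simp [h2]))))))
  · exact Or.inr (Or.inl (hs _ (by simp) (by simp [h0]) (by simp [h1]) (by simp [h2])))
  · exact Or.inr (Or.inr (Or.inr (Or.inr (Or.inr (hs _ (by simp) (by simp [h0]) (by simp [h1]) (by simp [h2]))))))
  · exact Or.inr (Or.inr (Or.inl (hs _ (by simp) (by simp [h0]) (by simp [h1]) (by simp [h2]))))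
  · exact Or.inr (Or.inr (Or.inr (Or.inl (hs _ (by simp) (by simp [h0]) (by simp [h1]) (by simp [h2])))))
  · exact Or.inl (hs _ (by simp) (by simp [h0]) (by simp [h1]) (by simp [h2]))

end Weyl

/-! ### the orders -/

theorem F4_p1_1 : PathOK CoxeterMatrix.F₄ [1] [1] [] 1 := by
  constructor <;> decide +kernel

theorem F4_p0_0 : PathOK CoxeterMatrix.F₄ [0] [0] [] 0 := by
  constructor <;> decide +kernel

theorem F4_p13_1 : PathOK CoxeterMatrix.F₄ [1, 3] [1] [3] 1 := by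
  constructor <;> decide +kernel

theorem F4_p02_0 : PathOK CoxeterMatrix.F₄ [0, 2] [0] [2] 0 := by
  constructor <;> decide +kernel

section Ord

variable {W Y : Type*} [Group W] [Group Y] [Finite W] [Finite Y]
  {cs : CoxeterSystem CoxeterMatrix.F₄ W} {r : ℕ} {T : Subgroup Y} {n : Fin 4 → Y}
  {X : (Fin 4 → ℤ) → Subgroup Y} (R : RGD cs (hpF4.isCartan) r T n X) {q : ℕ} (hq : 2 ≤ q)
  (hs : ∀ i, Nat.card (X (sr i)) = q)

include R hq hs

theorem oF4_1 : ParOrd cs (hpF4.isCartan) T X q 4 [1] [1, 1, 1, 2] :=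
  ParOrd.path (ParOrd.nil R) R hq hs F4_p1_1 (by decide)

theorem oF4_0 : ParOrd cs (hpF4.isCartan) T X q 4 [0] [1, 1, 1, 2] :=
  ParOrd.path (ParOrd.nil R) R hq hs F4_p0_0 (by decide)

theorem oF4_13 : ParOrd cs (hpF4.isCartan) T X q 4 [1, 3] [1, 1, 2, 2] :=
  ParOrd.path (oF4_3 R hq hs) R hq hs F4_p13_1 (by decide)

theorem oF4_02 : ParOrd cs (hpF4.isCartan) T X q 4 [0, 2] [1, 1, 2, 2] :=
  ParOrd.path (oF4_2 R hq hs) R hq hs F4_p02_0 (by decide)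

end Ord

section Card

universe u

variable (K : Type u) [Field K] [Finite K]

/-- the order of `P_J` -/
theorem card_PJ {W : Type*} [Group W] (cs : CoxeterSystem CoxeterMatrix.F₄ W) {J : List (Fin 4)} {dJ : List ℕ}
    (hJ : ∀ (_ : Finite W) (r : ℕ), RGD cs hpF4.isCartan r (TT chevF4 K)
        (fun i => (⟨nn hpF4 K i, nn_mem_group hpF4 i⟩ : ↥(chevF4.group K))) (XX chevF4 4 K) → 2 ≤ Nat.card K →
        (∀ i, Nat.card (XX chevF4 4 K (sr i)) = Nat.card K) →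
        ParOrd cs hpF4.isCartan (TT chevF4 K) (XX chevF4 4 K) (Nat.card K) 4 J dJ) :
    Nat.card ↥(PJ cs hpF4.isCartan (TT chevF4 K) (XX chevF4 4 K) {j | j ∈ J}) = Nat.card K ^ 24 * pr (Nat.card K) dJ := by
  classical
  have : Fintype K := Fintype.ofFinite K
  obtain ⟨r, hrc⟩ := CharP.exists K
  have hrp : Fact r.Prime := ⟨CharP.char_is_prime K r⟩
  obtain ⟨f, hr, hK⟩ := FiniteField.card K r
  have hf : (f : ℕ) ≠ 0 := f.2.ne'
  have hq : Nat.card K = r ^ (f : ℕ) := by rw [Nat.card_eq_fintype_card, hK]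
  have h2 : 2 ≤ r ^ (f : ℕ) := two_le hr hf
  have hfin := finite_W hpF4 cs
  have R := rgd (K := K) hpF4 cs r
  have hc : ∀ i, Nat.card (XX chevF4 4 K (sr i)) = Nat.card K := fun i => by
    rw [card_XX hpF4 K cs (isRoot_sr _ _ i)]
  have h3 := Cfsg.Agent.S1062.result hK
  have hcard : Nat.card ↥(chevF4.group K) = r ^ ((f : ℕ) * 24) * pr (r ^ (f : ℕ)) [2, 6, 8, 12] := by
    rw [h3, pow_mul]
    simp only [pr_cons, pr_nil]
    ring
  obtain ⟨N, e1, e2⟩ := hJ hfin r R (hq ▸ h2) hc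
  have h5 := index_split hpF4 K hr hf hK cs (not_dvd_of_dvd hr hf (one_dvd _))
    (by rw [← hK]; exact Cfsg.Agent.S1035.result rfl (chevF4, 1) (by simp))
    ⟨(f : ℕ) * 24, by rw [one_mul, hcard]⟩ (not_dvd_pr hr hf _ (by decide)) e1
  rw [hq] at e2 ⊢
  set P := PJ cs hpF4.isCartan (TT chevF4 K) (XX chevF4 4 K) {j | j ∈ J} with hP
  have h6 : P.index * pr (r ^ (f : ℕ)) dJ = pr (r ^ (f : ℕ)) [2, 6, 8, 12] := by
    rw [← e2, ← mul_assoc]
    exact h5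
  have h7 := P.card_mul_index
  rw [hcard, ← h6] at h7
  have h8 : P.index ≠ 0 := Subgroup.index_ne_zero_of_finite
  apply Nat.eq_of_mul_eq_mul_right (Nat.pos_of_ne_zero h8)
  rw [h7, pow_mul]
  ring

theorem dvd_pow_sub_one {q d : ℕ} (hq : 1 ≤ q) : 7 ∣ q ^ d - 1 ↔ orderOf (q : ZMod 7) ∣ d := by
  rw [orderOf_dvd_iff_pow_eq_one, ← ZMod.natCast_eq_zero_iff, Nat.cast_sub (Nat.one_le_pow _ _ hq), Nat.cast_pow,
    Nat.cast_one, sub_eq_zero]

theorem not_dvd_pow {q : ℕ} (h : orderOf (q : ZMod 7) = 3 ∨ orderOf (q : ZMod 7) = 6) (n : ℕ) : ¬ 7 ∣ q ^ n := by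
  intro h1
  have h2 := Nat.Prime.dvd_of_dvd_pow (by norm_num : Nat.Prime 7) h1
  rw [(ZMod.natCast_eq_zero_iff q 7).2 h2] at h
  have h3 : orderOf (0 : ZMod 7) = 0 := by
    rw [orderOf_eq_zero_iff']
    intro m hm
    rw [zero_pow hm.ne']
    decide
  rw [h3] at h
  omega

theorem seven_dvd_pr {q : ℕ} (hq : 1 ≤ q) : ∀ l : List ℕ, 7 ∣ pr q l ↔ ∃ d ∈ l, orderOf (q : ZMod 7) ∣ d
  | [] => by
    rw [pr_nil]
    simp
  | d :: l => by
    rw [pr_cons, Nat.Prime.dvd_mul (by norm_num : Nat.Prime 7), seven_dvd_pr hq l, dvd_pow_sub_one hq]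
    simp

variable {K} (h7 : orderOf ((Nat.card K : ℕ) : ZMod 7) = 3 ∨ orderOf ((Nat.card K : ℕ) : ZMod 7) = 6)

include h7 in
theorem not_dvd_of {W : Type*} [Group W] (cs : CoxeterSystem CoxeterMatrix.F₄ W) {J : List (Fin 4)} {dJ : List ℕ}
    (hJ : ∀ (_ : Finite W) (r : ℕ), RGD cs hpF4.isCartan r (TT chevF4 K)
        (fun i => (⟨nn hpF4 K i, nn_mem_group hpF4 i⟩ : ↥(chevF4.group K))) (XX chevF4 4 K) → 2 ≤ Nat.card K →
        (∀ i, Nat.card (XX chevF4 4 K (sr i)) = Nat.card K) →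
        ParOrd cs hpF4.isCartan (TT chevF4 K) (XX chevF4 4 K) (Nat.card K) 4 J dJ)
    (hd : ∀ d ∈ dJ, ¬ 3 ∣ d) {S : Set (Fin 4)} (hS : S = {j | j ∈ J}) :
    ¬ 7 ∣ Nat.card ↥(PJ cs hpF4.isCartan (TT chevF4 K) (XX chevF4 4 K) S) := by
  rw [hS, card_PJ K cs hJ, Nat.Prime.dvd_mul (by norm_num : Nat.Prime 7), not_or]
  refine ⟨not_dvd_pow h7 _, fun h1 => ?_⟩
  obtain ⟨d, hd1, hd2⟩ := (seven_dvd_pr Finite.card_pos _).1 h1
  exact hd d hd1 (dvd_trans (by rcases h7 with h | h <;> rw [h]; norm_num) hd2)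

include h7 in
theorem dvd_of {W : Type*} [Group W] (cs : CoxeterSystem CoxeterMatrix.F₄ W) {J : List (Fin 4)} {dJ : List ℕ}
    (hJ : ∀ (_ : Finite W) (r : ℕ), RGD cs hpF4.isCartan r (TT chevF4 K)
        (fun i => (⟨nn hpF4 K i, nn_mem_group hpF4 i⟩ : ↥(chevF4.group K))) (XX chevF4 4 K) → 2 ≤ Nat.card K →
        (∀ i, Nat.card (XX chevF4 4 K (sr i)) = Nat.card K) →
        ParOrd cs hpF4.isCartan (TT chevF4 K) (XX chevF4 4 K) (Nat.card K) 4 J dJ)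
    (hd : 6 ∈ dJ) {S : Set (Fin 4)} (hS : S = {j | j ∈ J}) :
    7 ∣ Nat.card ↥(PJ cs hpF4.isCartan (TT chevF4 K) (XX chevF4 4 K) S) := by
  rw [hS, card_PJ K cs hJ]
  refine Dvd.dvd.mul_left ((seven_dvd_pr Finite.card_pos _).2 ⟨6, hd, ?_⟩) _
  rcases h7 with h | h <;> rw [h]
  norm_num

variable {W : Type*} [Group W] (cs : CoxeterSystem CoxeterMatrix.F₄ W)

include h7

/-- **the small parabolic subgroups are 7'-groups** -/
theorem not_dvd_card {J : Set (Fin 4)} (hJ : J = ∅ ∨ J = {1} ∨ J = {2} ∨ J = {3} ∨ J = {1, 2} ∨ J = {1, 3}) :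
    ¬ 7 ∣ Nat.card ↥(PJ cs hpF4.isCartan (TT chevF4 K) (XX chevF4 4 K) J) := by
  rcases hJ with rfl | rfl | rfl | rfl | rfl | rfl
  · exact not_dvd_of h7 cs (J := []) (fun _ r R _ _ => ParOrd.nil R) (by decide) (by ext; simp)
  · exact not_dvd_of h7 cs (J := [1]) (fun _ r R h2 hs => oF4_1 R h2 hs) (by decide) (by ext; simp)
  · exact not_dvd_of h7 cs (J := [2]) (fun _ r R h2 hs => oF4_2 R h2 hs) (by decide) (by ext; simp)
  · exact not_dvd_of h7 cs (J := [3]) (fun _ r R h2 hs => oF4_3 R h2 hs) (by decide) (by ext; simp)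
  · exact not_dvd_of h7 cs (J := [1, 2]) (fun _ r R h2 hs => oF4_12 R h2 hs) (by decide) (by ext; simp)
  · exact not_dvd_of h7 cs (J := [1, 3]) (fun _ r R h2 hs => oF4_13 R h2 hs) (by decide) (by ext; simp)

theorem not_dvd_card' {J : Set (Fin 4)} (hJ : J = ∅ ∨ J = {0} ∨ J = {1} ∨ J = {2} ∨ J = {0, 2} ∨ J = {1, 2}) :
    ¬ 7 ∣ Nat.card ↥(PJ cs hpF4.isCartan (TT chevF4 K) (XX chevF4 4 K) J) := by
  rcases hJ with rfl | rfl | rfl | rfl | rfl | rfl
  · exact not_dvd_of h7 cs (J := []) (fun _ r R _ _ => ParOrd.nil R) (by decide) (by ext; simp)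
  · exact not_dvd_of h7 cs (J := [0]) (fun _ r R h2 hs => oF4_0 R h2 hs) (by decide) (by ext; simp)
  · exact not_dvd_of h7 cs (J := [1]) (fun _ r R h2 hs => oF4_1 R h2 hs) (by decide) (by ext; simp)
  · exact not_dvd_of h7 cs (J := [2]) (fun _ r R h2 hs => oF4_2 R h2 hs) (by decide) (by ext; simp)
  · exact not_dvd_of h7 cs (J := [0, 2]) (fun _ r R h2 hs => oF4_02 R h2 hs) (by decide) (by ext; simp)
  · exact not_dvd_of h7 cs (J := [1, 2]) (fun _ r R h2 hs => oF4_12 R h2 hs) (by decide) (by ext; simp)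

/-- `J ⊆ {1, 2, 3}` mapped into `{0, 1, 2}` : `P_J` is a 7'-group -/
theorem not_dvd_of_map {J J' : Set (Fin 4)} (hJ : J ⊆ {1, 2, 3}) (hJ' : J' ⊆ {0, 1, 2}) {w : W}
    (h : ∀ k ∈ J, ∃ j ∈ J', rep cs hpF4.isCartan w (sr k) = sr j) :
    ¬ 7 ∣ Nat.card ↥(PJ cs hpF4.isCartan (TT chevF4 K) (XX chevF4 4 K) J) :=
  not_dvd_card h7 cs (shape hJ hJ' h)

/-- `J' ⊆ {0, 1, 2}` in the image of `{1, 2, 3}` : `P_J'` is a 7'-group -/
theorem not_dvd_of_map' {J J' : Set (Fin 4)} (hJ : J ⊆ {1, 2, 3}) (hJ' : J' ⊆ {0, 1, 2}) {w : W}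
    (h : ∀ j ∈ J', ∃ k ∈ J, rep cs hpF4.isCartan w (sr k) = sr j) :
    ¬ 7 ∣ Nat.card ↥(PJ cs hpF4.isCartan (TT chevF4 K) (XX chevF4 4 K) J') :=
  not_dvd_card' h7 cs (shape' hJ hJ' h)

theorem dvd_card_123 : 7 ∣ Nat.card ↥(PJ cs hpF4.isCartan (TT chevF4 K) (XX chevF4 4 K) {1, 2, 3}) :=
  dvd_of h7 cs (J := [1, 2, 3]) (fun _ r R h2 hs => oF4_123 R h2 hs) (by decide) (by ext; simp)

theorem dvd_card_012 : 7 ∣ Nat.card ↥(PJ cs hpF4.isCartan (TT chevF4 K) (XX chevF4 4 K) {0, 1, 2}) :=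
  dvd_of h7 cs (J := [0, 1, 2]) (fun _ r R h2 hs => oF4_012 R h2 hs) (by decide) (by ext; simp)

end Card

end Cfsg.Agent.H25.LB
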